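import Cfsg.Agent.Co.D1.D0

set_option autoImplicit false
set_option maxRecDepth 100000
set_option Elab.async false

namespace Cfsg.Co.D1

open Cfsg.H6

theorem k0 : allR (D.ok2 13) 0 80 = true := by decide +kernel

theorem k1 : allR (D.ok2 13) 80 80 = true := by decide +kernel

theorem k2 : allR (D.ok2 13) 160 80 = true := by decide +kernel

theorem k3 : allR (D.ok2 13) 240 80 = true := by decide +kernel

theorem k4 : allR (D.ok2 13) 320 80 = true := by decide +kernel

theorem k5 : allR (D.ok2 13) 400 80 = true := by decide +kernel

theorem k6 : allR (D.ok2 13) 480 80 = true := by decide +kernel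

theorem k7 : allR (D.ok2 13) 560 80 = true := by decide +kernel

theorem k8 : allR (D.ok2 13) 640 80 = true := by decide +kernel

end Cfsg.Co.D1
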